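-- Final assembly of the certificate MWA4.
import Cfsg.Agent.Lib.Compute.TC.MWA4.Keys0
import Cfsg.Agent.Lib.Compute.TC.MWA4.Rel0
import Cfsg.Agent.Lib.Compute.TC.MWA4.Fin
set_option autoImplicit false
set_option maxRecDepth 1000000

open Cfsg.Agent.Lib.Compute.ToddCoxeterCore Cfsg.Agent.Lib.Compute.ToddCoxeterPresented Cfsg.Agent.Lib.Compute.TCFast

namespace Cfsg.Agent.Lib.Compute.TC.MWA4

theorem rulesChk : rulesOK cfg.L cfg.inv relsL rT = true := by decide +kernel

theorem small : Small D cfg where
  hL := by decide +kernel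
  hLp := by decide +kernel
  hnd := by decide +kernel
  hinvL := by decide +kernel
  hinvP := by decide +kernel
  hinv2 := by decide +kernel
  hinvol := by decide +kernel
  hrels1 := by decide +kernel
  hrels2 := by decide +kernel
  hhw := by decide +kernel
  hN := by decide +kernel

theorem w0Chk : ∀ w ∈ D.hw, cfg.walk maxS w 0 (Nat.beq 0) = true := by decide +kernel

theorem keysFull : ∀ k, k < cfg.M → cfg.chkKey k = true := fun k hk =>
  (allFrom_chain (allFrom_nil cfg.chkKey (nat_lit 0)) keys0 (c := 600) rfl) k (Nat.zero_le k) hk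

theorem relLt : ∀ a ∈ relsL, ∀ x ∈ a, x < cfg.L := by decide +kernel

theorem relFast : ∀ k, k < cfg.N → chkRelF cfg relsL k = true := fun k hk =>
  (allFrom_chain (allFrom_nil (chkRelF cfg relsL) (nat_lit 0)) rel0 (c := 120) rfl) k (Nat.zero_le k) hk

theorem finFull : ∀ i, i < cfg.N → cfg.chkFin (List.range cfg.L) i = true := fun i hi =>
  allFrom_all finAll rfl i (Nat.zero_le i) hi

theorem relFull : ∀ k, k < cfg.N → cfg.chkRel relsL k = true := fun k hk =>
  chkRel_of_fast finFull relLt hk (relFast k hk)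

theorem big : Big D cfg where
  hwords := fun _ => rfl
  hrules := fun r => rulesOK_spec rulesChk r
  hw0 := w0Chk
  hkeys := keysFull
  hlbl := fun j hj hj' => allFrom_all lblAll rfl j (Nat.pos_of_ne_zero hj) hj'
  hfin := finFull
  hq := fun i hi hi' => allFrom_all qAll rfl i (Nat.pos_of_ne_zero hi) hi'
  hrel := relFull

theorem hgens : ∀ a, (a, true) ∈ D.lets := by intro a; fin_cases a <;> decide

/-- the relators as a set -/
abbrev RR : Set (FreeGroup (Fin 4)) := {r | r ∈ rsL}

theorem hR : ∀ r, r ∈ RR ↔ r ∈ D.rs := fun _ => Iff.rfl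

/-- The index of the subgroup. -/
theorem index : (HOf RR D.Hs).index = 120 :=
  index_eq hR small big hgens

end Cfsg.Agent.Lib.Compute.TC.MWA4
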